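import Cfsg.Agent.H22.JC2
import Cfsg.Agent.H22.ExtTr

/-! ZN-groups of local characteristic 2 (Kurzweil–Stellmacher 12.3). -/

set_option autoImplicit false
set_option linter.unusedSectionVars false

namespace Cfsg.Agent.P22

open Cfsg Subgroup Cfsg.Agent.FT
open Cfsg.Agent.H5b (MaxAb Jn)
open scoped commutatorElement

universe u

variable {G : Type u} [Group G] [Finite G] {p : ℕ} {π : Set ℕ}
  {A B D E F H J K K' L L' M P Q R S T T' U V W X Y Z : Subgroup G} {a g k s x y : G}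

theorem not_mem_res (hS : Syl 2 S ⊤) (hP : PGrp 2 P) (hy : y ∈ Z(P)) (y2 : y ^ 2 = 1) (hyS : y ∈ S) (hn : y ∉ ⁅S, S⁆)
    (h : ∀ g, cj g P ≤ S → g * y * g⁻¹ * y⁻¹ ∈ ⁅S, S⁆) : y ∉ piGen {2}ᶜ (⊤ : Subgroup G) := fun m => by
  have k : ∀ x : S, Abelianization.of x = 1 ↔ (x : G) ∈ ⁅S, S⁆ := fun x => by
    rw [der_eq_map]
    exact (QuotientGroup.eq_one_iff x).trans (mem_map_iff_mem S.subtype_injective).symm
  have e := transfer_extremal (S := S) (by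
      have := hS.not_dvd Nat.prime_two
      rw [relIndex_top_right] at this
      exact Nat.odd_iff.2 (by omega)) Abelianization.of (sq y ▸ y2) hP.isPGroup hy.1 (mem_cen.1 hy.2)
    (Abelianization.of ⟨y, hyS⟩) fun g a b => by
      rw [← mul_inv_eq_one, ← map_inv, ← map_mul, k]
      simpa using h g⁻¹ fun x hx => by simpa [mul_assoc] using a _ (mem_cj.1 hx)
  have l : piGen {2}ᶜ (⊤ : Subgroup G) ≤ (MonoidHom.transfer (Abelianization.of : S →* _)).ker :=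
    piGen_le_iff.2 fun x _ hx => by
      obtain ⟨n, hn⟩ := (hS.pi.isPGroup.of_surjective Abelianization.of QuotientGroup.mk_surjective)
        (MonoidHom.transfer (Abelianization.of : S →* _) x)
      exact orderOf_eq_one_iff.1 (Nat.eq_one_of_dvd_coprimes (((p'elt_iff_coprime Nat.prime_two).1 hx).pow_right n)
        (orderOf_map_dvd _ x) (orderOf_dvd_of_pow_eq_one hn))
  exact hn ((k ⟨y, hyS⟩).1 (e.symm.trans (l m)))

/-- two different maximal `2`-local subgroups over `T` -/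
structure Pair (T K L K' L' : Subgroup G) : Prop where
  h : Good T K L
  h' : Good T K' L'
  ne : L ≠ L'

namespace Pair

theorem symm (c : Pair T K L K' L') : Pair T K' L' K L := ⟨c.h', c.h, c.ne.symm⟩
theorem eq (c : Pair T K L K' L') : K ⊔ T = L := (c.h.final c.h' c.ne).1
theorem am (c : Pair T K L K' L') : S3Am L L' T := c.eq ▸ c.symm.eq ▸ c.h.amal c.h' c.ne
theorem ab (c : Pair T K L K' L') : Abelem 2 O[{2}](L) := c.eq ▸ (c.h.main c.h' c.ne).1.1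
theorem idx (c : Pair T K L K' L') : O[{2}](L).relIndex T = 2 := (c.am.s₁.idx c.am.t₁).1
theorem cen (c : Pair T K L K' L') : T ≤ C(Ω[2](Z(Jn 2 T))) := c.h.two_cen c.h'.jc c.h'.top c.ne
theorem nK (c : Pair T K L K' L') : T ≤ N(K) := c.h.nK c.cen
theorem pT (c : Pair T K L K' L') : PGrp 2 T := c.h.jo.syl.pi
theorem card_T (c : Pair T K L K' L') : #T = #O[{2}](L) * 2 :=
  (card_mul_relIndex c.h.jo.Q_le).symm.trans (by rw [c.idx])

theorem sup (c : Pair T K L K' L') : O[{2}](L) ⊔ O[{2}](L') = T :=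
  c.am.s₁.sup_eq' c.am.t₁ c.h'.jo.Q_le fun e => by
    have := eq_of_card_eq e (by have := c.card_T; have := c.symm.card_T; omega)
    exact c.h.jo.Q_ne (c.am.core _ c.h.jo.Q_le (pcore_nrm _ L) (this ▸ pcore_nrm _ L'))

theorem maxAb (c : Pair T K L K' L') : MaxAb 2 T O[{2}](L) := ⟨c.h.jo.Q_le, c.ab, fun B a b => by
  have := c.pT.mul_card_le (lt_of_le_of_ne a fun e => c.am.s₁.not_le c.am.t₁
    (((e ▸ Abelem.ab b : Ab T).cents c.h.jo.Q_le le_rfl).trans c.h.jo.ch))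
  have := c.card_T
  omega⟩

theorem J_eq (c : Pair T K L K' L') : Jn 2 T = T :=
  le_antisymm (H5b.Jn_le 2 T) (c.sup.ge.trans (sup_le c.maxAb.le_Jn c.symm.maxAb.le_Jn))

theorem jc (c : Pair T K L K' L') : JC T K := c.J_eq ▸ c.h.jc

theorem inf_le (c : Pair T K L K' L') : O[{2}](L) ⊓ O[{2}](L') ≤ Ω[2](Z(T)) :=
  (c.ab.mono inf_le_left).le_Ohm (le_inf (inf_le_left.trans c.h.jo.Q_le) (c.sup ▸ centsY
    (inf_le_left.trans c.ab.ab.le_cen) (inf_le_right.trans c.symm.ab.ab.le_cen)))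

theorem Z_le (c : Pair T K L K' L') : Ω[2](Z(T)) ≤ O[{2}](L) := (c.h.jo.Z_le le_rfl).trans (Vl_le L)

theorem W_le (c : Pair T K L K' L') : Wk K ≤ O[{2}](L) := (c.h.jo.W_le c.h.jc.toJC0 c.h.top.hK).trans (Vl_le L)

theorem W_not (c : Pair T K L K' L') : ¬ Wk K ≤ O[{2}](L') := fun e => by
  have := c.jc.card_Z0_inf
  rw [inf_eq_right.2 ((le_inf c.W_le e).trans c.inf_le), c.jc.card] at this
  omega

theorem sup_W (c : Pair T K L K' L') : O[{2}](L) ⊔ Wk K' = T :=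
  c.am.s₁.sup_eq' c.am.t₁ (c.symm.W_le.trans c.h'.jo.Q_le) c.symm.W_not

theorem Y_eq (c : Pair T K L K' L') : O[{2}](L) ⊓ C(L) = Ω[2](Z(T)) ⊓ C(K) :=
  le_antisymm (le_inf ((c.ab.mono inf_le_left).le_Ohm (inf_le_inf c.h.jo.Q_le (cen_anti c.h.jo.syl.le)))
    (inf_le_right.trans (cen_anti c.h.top.hK))) (le_inf (inf_le_left.trans c.Z_le)
      (c.eq ▸ centsY inf_le_right (inf_le_left.trans (Ohm_center_le_cen _ le_rfl))))

theorem split (c : Pair T K L K' L') : #O[{2}](L) = 4 * #(Ω[2](Z(T)) ⊓ C(K)) ∧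
    ∃ H, DP H (Ω[2](Z(T)) ⊓ C(K)) L ∧ Nonempty (H ≃* Equiv.Perm (Fin 4)) := by
  obtain ⟨t, ht, n⟩ := SetLike.not_le_iff_exists.1 c.symm.W_not
  rw [← c.Y_eq]
  refine c.am.s₁.s4_split (inf_le_right.trans c.h.jo.ch) c.ab c.am.t₁ (c.h'.jo.Q_le (c.symm.W_le ht)) n
    (sq t ▸ (abelem_Wk K').pow ht) ?_
  have h1 := card_mul_le c.h.jo.Q_le c.h'.jo.Q_le
  have h2 := card_le (le_inf inf_le_left (c.inf_le.trans (Ohm_center_le_cen _ le_rfl)))
  have h3 := c.card_T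
  have h4 := c.symm.card_T
  have h5 := card_pos O[{2}](L)
  nlinarith

theorem dpQ (c : Pair T K L K' L') : DP (Wk K) (Ω[2](Z(T)) ⊓ C(K)) O[{2}](L) := by
  have d := dp_sup (A := Wk K) (B := Ω[2](Z(T)) ⊓ C(K)) (inf_le_right.trans (cen_anti (Wk_le K)))
    (eq_bot_of_le (inf_le_inf_left _ inf_le_right) c.jc.W_act.2)
  rwa [eq_of_card_eq (sup_le c.W_le (inf_le_left.trans c.Z_le)) (by rw [d.card, c.jc.card, c.split.1])] at d

theorem U_le (c : Pair T K L K' L') : Ω[2](Z(T)) ⊓ Wk K = ⁅Wk K, Wk K'⁆ := by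
  have n := (c.symm.W_le.trans c.h'.jo.Q_le).trans (norms_Wk c.nK)
  have n' := (c.W_le.trans c.h.jo.Q_le).trans (norms_Wk c.symm.nK)
  refine (eq_of_le_prime (c.jc.card_Z0_inf.symm ▸ Nat.prime_two) (le_inf ((le_inf ((comm_le_left n).trans c.W_le)
    ((comm_le_right n').trans c.symm.W_le)).trans c.inf_le) (comm_le_left n)) fun e => ?_).symm
  exact c.jc.not_cenW c.jc.W_ne c.jc.nK c.jc.not_comm
    (c.sup_W ▸ sup_le (c.ab.ab.cents c.W_le le_rfl) (comm_eq_bot'.1 e))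

theorem Y_not (c : Pair T K L K' L') (hy : y ∈ Ω[2](Z(T)) ⊓ C(K)) (h1 : y ≠ 1) (hc : #(Ω[2](Z(T)) ⊓ C(K)) = 2) :
    y ∉ Wk K ⊔ Wk K' ∧ (Wk K ⊔ Wk K').relIndex T = 2 := by
  have l := sup_le (c.W_le.trans c.h.jo.Q_le) (c.symm.W_le.trans c.h'.jo.Q_le)
  have e1 := card_sup_mul_card_inf ((c.symm.W_le.trans c.h'.jo.Q_le).trans (norms_Wk c.nK))
  have e2 : Wk K ⊓ Wk K' = Ω[2](Z(T)) ⊓ Wk K := le_antisymm (le_inf ((inf_le_inf c.W_le c.symm.W_le).trans c.inf_le)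
    inf_le_left) (le_inf inf_le_right (by rw [c.U_le, commC, ← c.symm.U_le]; exact inf_le_right))
  rw [e2, c.jc.card_Z0_inf, c.jc.card, c.symm.jc.card] at e1
  have e3 := card_mul_relIndex l
  rw [c.card_T, c.split.1, hc] at e3
  have e4 : (Wk K ⊔ Wk K').relIndex T = 2 := by rw [show #(Wk K ⊔ Wk K') = 8 by omega] at e3; omega
  refine ⟨fun m => ?_, e4⟩
  rw [relIndex_eq_one.2 (c.sup_W.ge.trans (sup_le (c.dpQ.sup.ge.trans (sup_le le_sup_left ?_)) le_sup_right))] at e4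
  · omega
  · rw [eq_zpowers_of_prime (hc.symm ▸ Nat.prime_two) hy h1]
    exact zpowers_le.2 m

theorem not_mem (c : Pair T K L K' L') (hy : y ∈ Ω[2](Z(T)) ⊓ C(K)) (h1 : y ≠ 1) (hc : #(Ω[2](Z(T)) ⊓ C(K)) = 2)
    (hS : Syl 2 S ⊤) (hT : T ≤ S) (hJ : Jn 2 S = T) (hi : T.relIndex S ≤ 2) (hn : S ≤ N(Wk K ⊔ Wk K')) :
    y ∉ piGen {2}ᶜ (⊤ : Subgroup G) := by
  obtain ⟨a, b⟩ := c.Y_not hy h1 hc
  have l := sup_le (c.W_le.trans c.h.jo.Q_le) (c.symm.W_le.trans c.h'.jo.Q_le)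
  have d : ⁅S, S⁆ ≤ Wk K ⊔ Wk K' := der_le_of_relIndex_dvd_sq Nat.prime_two hn (by
    have := relIndex_pos T S
    rw [← relIndex_mul l hT, b]
    rcases (by omega : T.relIndex S = 1 ∨ T.relIndex S = 2) with e | e <;> rw [e] <;> decide)
  have u : Ω[2](Z(T)) ⊓ Wk K ≤ ⁅T, T⁆ := c.U_le.le.trans (commSS (le_sup_left.trans l) (le_sup_right.trans l))
  have yz := Ohm_le _ _ hy.1
  refine not_mem_res hS c.pT yz ((abelem_Ohm_center _ _).pow hy.1) (hT yz.1) (fun m => a (d m)) fun g hg => ?_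
  have n := cj_eq_self.1 (Jn_weak hJ hg)
  have i : (Ω[2](Z(T)) ⊓ Wk K).relIndex Ω[2](Z(T)) = 2 := by
    have := card_mul_relIndex (inf_le_left : Ω[2](Z(T)) ⊓ Wk K ≤ _)
    rw [c.jc.card_Z0_inf, c.jc.card_Z0, hc] at this
    omega
  have d' := (der_mono hT).trans d
  exact der_mono hT (u (mul_mem_two i (conj_mem (norms_Ohm _ (norms_center le_rfl) n) hy.1) (inv_mem hy.1)
    (fun m => a (d' (by simpa [mul_assoc] using conj_mem' (norms_der le_rfl n) (u m))))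
    fun m => a (d' (inv_mem_iff.1 (u m)))))

theorem le_center (c : Pair T K L K' L') (e : cj s O[{2}](L) = O[{2}](L')) (hV : Abelem 2 V) (l : V ≤ T)
    (hn : s ∈ N(V)) : V ≤ Ω[2](Z(T)) := by
  have k := fun x (hx : x ∈ V) => inv_mem_of c.ab c.symm.ab c.h'.jo.ch c.idx c.sup (l hx) (hV.pow hx)
  have e' := cj_of_mem_nrm hn
  have m : V ≤ O[{2}](L) := by
    by_contra m
    obtain ⟨x, hx, x1⟩ := SetLike.not_le_iff_exists.1 m
    obtain ⟨y, hy, y1⟩ := SetLike.not_le_iff_exists.1 fun r : V ≤ O[{2}](L') => m (cj_le_cj.1 (e'.le.trans (e ▸ r)))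
    exact y1 ((mul_mem_cancel_left (k x hx x1)).1 (k _ (mul_mem hx hy) fun r =>
      x1 ((mul_mem_cancel_right (by_contra fun u => y1 (k y hy u))).1 r)))
  exact (le_inf m (e'.ge.trans (e ▸ cj_mono s m))).trans c.inf_le

end Pair

theorem Good.pair (h : Good T K L) (hS : PGrp 2 S) (hT : T ≤ S) (hs : s ∈ S) (hn : s ∉ T) (hN : s ∈ N(T)) :
    Pair T K L (FT.cj s K) (FT.cj s L) := ⟨h, h.cj hN, h.ne_cj (h.not_mem hS hT hs hn)⟩

theorem Pair.Y_inf (c : Pair T K L K' L') : Ω[2](Z(T)) ⊓ C(K) ⊓ piGen {2}ᶜ (⊤ : Subgroup G) = ⊥ := by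
  by_contra hne
  obtain ⟨y, ⟨hy, m⟩, h1⟩ := exists_ne_one hne
  obtain ⟨S, hS, hT⟩ := c.pT.exists_syl le_top
  have c1 := c.jc.card_Z0
  have c2 := one_lt_card (ne_bot_of_mem hy h1)
  have t := c.h.two c.h'.jc c.h'.top c.ne hS hT
  rw [c.J_eq] at t
  have c3 : #(Ω[2](Z(T)) ⊓ C(K)) = 2 := by rcases t with e | e | e <;> omega
  by_cases e : T = S
  · exact c.not_mem hy h1 c3 hS hT (e ▸ c.J_eq) (by rw [e, relIndex_self]; omega)
      (e ▸ normsY (norms_Wk c.nK) (norms_Wk c.symm.nK)) m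
  obtain ⟨t1, -, t2, t3⟩ := (t.resolve_left fun r => by omega).resolve_left fun r => e r.2.2
  have z := c.J_eq ▸ c.h.Z_le hT
  have n1 : S ⊓ N(T) ≤ N(Ω[2](Z(T))) := inf_le_right.trans (norms_Ohm _ (norms_center le_rfl))
  have l1 : ∀ x ∈ S, x ∈ C(Ω[2](Z(T))) → x ∈ T := fun x a b => by_contra fun r => c.h.not_mem hS.pi hT a r (t3 b)
  have i1 : T.relIndex (S ⊓ N(T)) ≤ 2 := by
    refine le_trans (Nat.le_of_dvd (relIndex_pos _ _) (relIndex_dvd_of_le (A := S ⊓ C(Ω[2](Z(T))))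
      (fun x a => l1 x a.1 a.2) _)) ?_
    rw [← inf_relIndex_right, inf_right_comm, ← inf_assoc, inf_idem, inf_relIndex_left]
    exact four_idx_two t1 n1 z (hS.pi.Ohm_center_ne_bot (ne_bot_of_le hT c.jc.J_ne)) (n1.trans t2)
  have l2 : T ≤ S ⊓ N(T) := le_inf hT (le_nrm T)
  have j1 : Jn 2 (S ⊓ N(T)) = T := by
    have k : ∀ A, MaxAb 2 (S ⊓ N(T)) A → A ≤ T := fun A hA => by
      by_contra r
      obtain ⟨a, ha, r⟩ := SetLike.not_le_iff_exists.1 r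
      have d := c.h.pair hS.pi hT (hA.le ha).1 r (hA.le ha).2
      have b1 := d.le_center (cj_pcore a _ L) (Abelem.mono hA.ab (inf_le_right (a := T))) inf_le_left
        (cen_le_nrm _ (cen_anti inf_le_right (hA.le_C ha)))
      have b2 : #(T ⊓ A) < 4 := t1 ▸ card_lt (lt_of_le_of_ne b1 fun q => r (l1 a (hA.le ha).1
        (q ▸ cen_anti inf_le_right (hA.le_C ha))))
      have b3 := card_inf_mul_relIndex T A
      have b4 := (Nat.le_of_dvd (relIndex_pos _ _) (relIndex_dvd_of_norm hA.le inf_le_right)).trans i1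
      have b5 := hA.max _ (c.h.jo.Q_le.trans l2) c.ab
      rw [c.split.1, c3] at b5
      nlinarith
    rw [← H5b.Jn_eq_of_le l2 (H5b.Jn_le_iff.2 k), c.J_eq]
  have e2 : S ⊓ N(T) = S := le_antisymm inf_le_left (le_inf le_rfl (le_of_subnorm hS.pi fun X x =>
    inf_le_right.trans (by rw [x, ← j1, j1]; nth_rewrite 2 [← j1]; exact norms_Jn le_rfl)))
  rw [e2] at i1 j1 n1
  obtain ⟨s, a, b, d⟩ := Good.exists_s hS.pi hT e
  have f := c.h.pair hS.pi hT a b d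
  have i2 : T.relIndex S = 2 := by have := one_lt_relIndex fun r : S ≤ T => b (r a); omega
  refine f.not_mem hy h1 c3 hS hT j1 i1 ?_ m
  rw [← (maxIn_of_prime_relIndex (i2 ▸ Nat.prime_two) hT).sup_eq (zpowers_le.2 a) fun r => b (r (mem_zpowers s))]
  refine sup_le (normsY (norms_Wk f.nK) (norms_Wk f.symm.nK)) (zpowers_le.2 (cj_eq_self.1 ?_))
  rw [cj_sup, cj_Wk, ← cj_Wk s K, cj_cj, cj_of_mem_nrm (norms_Wk c.nK (mul_mem_two i2 a a b b)), sup_comm]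

namespace Pair

theorem K_le (c : Pair T K L K' L') : K ≤ piGen {2}ᶜ (⊤ : Subgroup G) := c.jc.res.ge.trans (piGen_mono _ le_top)

theorem dp (c : Pair T K L K' L') : DP (piGen {2}ᶜ ⊤ ⊓ L) (Ω[2](Z(T)) ⊓ C(K)) L := by
  have k : K ≤ piGen {2}ᶜ ⊤ ⊓ L := le_inf c.K_le c.h.top.hK
  have d := dp_sup (A := piGen {2}ᶜ ⊤ ⊓ L) (B := Ω[2](Z(T)) ⊓ C(K))
    (c.Y_eq ▸ inf_le_right.trans (cen_anti inf_le_right))
    (eq_bot_of_le (le_inf inf_le_right (inf_le_left.trans inf_le_left)) c.Y_inf)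
  rwa [le_antisymm (sup_le inf_le_right (inf_le_left.trans (c.Z_le.trans (pcore_le _ _))))
    (c.eq.ge.trans (sup_le (k.trans le_sup_left) (c.sup_W.ge.trans (sup_le (c.dpQ.sup.ge.trans
      (sup_le_sup_right ((Wk_le K).trans k) _)) ((le_inf ((Wk_le K').trans c.symm.K_le)
        ((c.symm.W_le.trans c.h'.jo.Q_le).trans c.h.jo.syl.le)).trans le_sup_left)))))] at d

theorem iso (c : Pair T K L K' L') : Nonempty (↥(piGen {2}ᶜ ⊤ ⊓ L) ≃* Equiv.Perm (Fin 4)) := by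
  obtain ⟨H, d, ⟨e⟩⟩ := c.split.2
  exact ⟨(c.dp.symm.sd.quoEquiv.trans d.symm.sd.quoEquiv.symm).trans e⟩

theorem card_inf (c : Pair T K L K' L') : #(piGen {2}ᶜ ⊤ ⊓ T) = 8 := by
  have d := (c.dp.inf_right (L := T) (inf_le_left.trans ((Ohm_le _ _).trans inf_le_left))).card
  rw [inf_eq_left.2 c.h.jo.syl.le, inf_left_comm, inf_eq_left.2 c.h.jo.syl.le, c.card_T, c.split.1] at d
  have := card_pos (Ω[2](Z(T)) ⊓ C(K))
  nlinarith

theorem nrm_W (c : Pair T K L K' L') : N(Wk K) = L :=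
  le_antisymm (c.h.top.max _ c.jc.loc_W (norms_Wk (le_nrm K)) (norms_Wk c.h.jc.nK))
    (c.eq.ge.trans (norms_Wk (sup_le (le_nrm K) c.nK)))

theorem eq_W (c : Pair T K L K' L') (e : piGen {2}ᶜ ⊤ = H) (hR : PGrp 2 R) (h1 : R ≠ ⊥) (hle : R ≤ H)
    (hn : H ⊓ L ≤ N(R)) : R = Wk K := by
  have k0 : K ≤ H := e ▸ c.K_le
  have k : K ≤ H ⊓ L := le_inf k0 c.h.top.hK
  have w := ((Wk_le K).trans k).trans hn
  have n : H ⊓ L ⊴ L := nml_inf_of_norms' (e ▸ le_top.trans (piGen_nml _ _).nrm)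
  have a : R ⊓ L ≤ Wk K := by
    have a1 : R ⊓ L ≤ O[{2}](L) := pcore_max_subn (hR.inf_left _) ((Nml.subn ⟨inf_le_inf_right _ hle,
      normsI hn (norms_of_le inf_le_right)⟩).trans n.subn)
    have a2 := (c.dpQ.inf_left (L := H) ((Wk_le K).trans k0)).sup
    rw [inf_comm H, ← e, c.Y_inf, sup_bot_eq, e] at a2
    exact (le_inf (inf_le_left.trans hle) a1).trans a2.ge
  have b : R ⊔ Wk K ≤ Wk K := le_of_subnorm (hR.sup (pGrp_four c.jc.card) w) fun X x => by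
    rw [x, inf_eq_right.2 (le_sup_right : Wk K ≤ _), c.nrm_W, inf_comm,
      inf_sup_right w (c.W_le.trans (pcore_le _ _)), inf_comm]
    exact sup_le a le_rfl
  exact (c.jc.irr (le_sup_left.trans b) (k.trans hn)).resolve_left h1

theorem isMax (c : Pair T K L K' L') (e' : piGen {2}ᶜ ⊤ = H) : IsMaximalTwoLocal (L.subgroupOf H) := by
  have w : Wk K ≤ H := (Wk_le K).trans (e' ▸ c.K_le)
  have e : L.subgroupOf H = N((Wk K).subgroupOf H) := by rw [← so_nrm w, c.nrm_W]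
  refine ⟨loc_iff.1 ⟨_, (piGrp_so w).2 (pGrp_four c.jc.card), fun r => c.jc.W_ne ((so_eq_bot w).1 r), e⟩, ?_⟩
  rintro _ ⟨R, a, b, rfl⟩ l
  have inj := H.subtype_injective
  have := c.eq_W e' ((piGrp_map_inj inj).2 (pGrp_of_isPGroup Nat.prime_two a))
    (fun r => b ((map_eq_bot_iff_of_injective _ inj).1 r)) (map_subtype_le R) (by
      rw [inf_comm, ← subgroupOf_map_subtype]; exact map_norms _ l)
  rw [e, ← this, so_map]

end Pair

theorem ZN.exists_pair (z : ZN G) (hO : O[{2}]((⊤ : Subgroup G)) = ⊥) (hS : Syl 2 S ⊤) (h1 : S ≠ ⊥)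
    (hn : ¬ IsStronglyEmbedded N(Jn 2 S)) : ∃ T K L K' L' : Subgroup G, Pair T K L K' L' := by
  have := mt (se_iff (loc_nrm (hS.pi.mono (H5b.Jn_le 2 S)) (Jn_ne_bot Nat.prime_two hS.pi h1)) hO).2 hn
  push Not at this
  obtain ⟨T, t⟩ := this
  obtain ⟨T, t⟩ := (cm_of z hS le_rfl).exists_ms t
  obtain ⟨K, L, a, -⟩ := t.exists_good
  obtain ⟨K', L', b, c⟩ := a.other hO
  exact ⟨T, K, L, K', L', a, b, c⟩

end Cfsg.Agent.P22
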