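import Cfsg.Agent.H22.JC

/-! `J(T)`-components: the amalgam of two maximal `2`-local subgroups (Kurzweil–Stellmacher 12.2, 12.3). -/

set_option autoImplicit false
set_option linter.unusedSectionVars false

namespace Cfsg.Agent.P22

open Cfsg Subgroup Cfsg.Agent.FT
open Cfsg.Agent.H5b (MaxAb Jn)
open scoped commutatorElement

universe u

variable {G : Type u} [Group G] [Finite G] {p : ℕ} {π : Set ℕ}
  {A B D E F H J K K' L L' M P Q R S T T' U V W X Y Z : Subgroup G} {a g k s x y : G}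

theorem two_eq (h : #A = 2) (hx : x ∈ A) (hy : y ∈ A) (x1 : x ≠ 1) (y1 : y ≠ 1) : x = y := by
  obtain ⟨z, -, hz⟩ := (Nat.card_eq_two_iff' (1 : A)).1 h
  exact congrArg Subtype.val ((hz ⟨x, hx⟩ fun e => x1 (congrArg Subtype.val e)).trans
    (hz ⟨y, hy⟩ fun e => y1 (congrArg Subtype.val e)).symm)

theorem two_not_mem (hA : #A = 2) (hB : #B = 2) (hne : A ≠ B) (hx : x ∈ A) (x1 : x ≠ 1) : x ∉ B := fun e =>
  hne ((eq_zpowers_of_prime (hA ▸ Nat.prime_two) hx x1).trans (eq_zpowers_of_prime (hB ▸ Nat.prime_two) e x1).symm)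

/-- a group of order 4 has at most three subgroups of order 2 -/
theorem four_third (hc : #W = 4) (hA : A ≤ W) (hB : B ≤ W) (hD : D ≤ W) (hE : E ≤ W) (cA : #A = 2) (cB : #B = 2)
    (cD : #D = 2) (cE : #E = 2) (h : B ≠ A) (h1 : D ≠ A) (h2 : D ≠ B) (h3 : E ≠ A) (h4 : E ≠ B) : D = E := by
  have ex : ∀ X : Subgroup G, #X = 2 → ∃ x ∈ X, x ≠ 1 := fun X e => exists_ne_one (ne_bot_of_one_lt_card (by omega))
  obtain ⟨b, hb, b1⟩ := ex B cB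
  obtain ⟨d, hd, d1⟩ := ex D cD
  obtain ⟨e, he, e1⟩ := ex E cE
  have i : A.relIndex W = 2 := by have := card_mul_relIndex hA; rw [cA, hc] at this; omega
  have k : ∀ X x, X ≤ W → #X = 2 → X ≠ A → X ≠ B → x ∈ X → x ≠ 1 → b * x ∈ A ∧ b * x ≠ 1 := fun X x a c f g m n =>
    ⟨mul_mem_two i (hB hb) (a m) (two_not_mem cB cA h hb b1) (two_not_mem c cA f m n),
      fun q => two_not_mem c cB g m n (eq_inv_of_mul_eq_one_right q ▸ inv_mem hb)⟩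
  have q := mul_left_cancel (two_eq cA (k D d hD cD h1 h2 hd d1).1 (k E e hE cE h3 h4 he e1).1
    (k D d hD cD h1 h2 hd d1).2 (k E e hE cE h3 h4 he e1).2)
  by_contra hne
  exact two_not_mem cD cE hne hd d1 (q ▸ he)

theorem four_sup (hc : #W = 4) (hA : A ≤ W) (hB : B ≤ W) (cA : #A = 2) (cB : #B = 2) (h : B ≠ A) : A ⊔ B = W := by
  obtain ⟨b, hb, b1⟩ := exists_ne_one (H := B) (ne_bot_of_one_lt_card (by omega))
  rw [eq_zpowers_of_prime (cB ▸ Nat.prime_two) hb b1]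
  exact four_gen hc hA cA (hB hb) (two_not_mem cB cA h hb b1)

theorem ZN.not_cenZ (z : ZN G) (hS : Syl 2 S ⊤) (h : JC0 J K) (hK : K ≤ C(Ω[2](Z(S)))) (hJ : J ≤ C(Ω[2](Z(S)))) :
    False := h.not_le hS.pi (hK.trans (z.z S hS)) (hS.le_of_norm h.pJ le_top (hJ.trans (z.z S hS)))

theorem ZN.nZ (z : ZN G) (hS : Syl 2 S ⊤) : N(Ω[2](Z(S))) ≤ N(S) := fun g hg =>
  mem_nrm_of_cj_le (hS.le_of_norm (hS.pi.cj g) le_top (le_trans (by
    rw [← cj_of_mem_nrm hg]; exact cj_cents.2 (centsC (Ohm_center_le_cen 2 le_rfl))) (z.z S hS)))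

theorem Top.nrm_le (h : Top J K L) (hX : X ≤ Ω[2](Z(J)) ⊓ C(K)) (h1 : X ≠ ⊥) : N(X) ≤ L :=
  h.max _ (loc_nrm (((abelem_Ohm_center 2 J).pGrp Nat.prime_two).mono (hX.trans inf_le_left)) h1)
    (cents_norm (centsC (hX.trans inf_le_right)))
    (cents_norm (centsC (hX.trans (inf_le_left.trans (Ohm_center_le_cen _ le_rfl)))))

namespace Good

theorem cj (h : Good T K L) (hg : g ∈ N(T)) : Good T (cj g K) (cj g L) := by
  have e := cj_of_mem_nrm (norms_Jn (p := 2) le_rfl hg)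
  refine ⟨e ▸ h.jc.cj g, e ▸ h.top.cj g, h.jo.zn, cj_of_mem_nrm hg ▸ h.jo.syl.cj g, ?_, ?_⟩
  · rw [← e, ← cj_pcore, cj_le_cj]; exact h.jo.nle
  · rw [← cj_pcore, ← cj_cen, cj_le_cj]; exact h.jo.ch

theorem Z_le (h : Good T K L) (hS : T ≤ S) : Ω[2](Z(S)) ≤ Ω[2](Z(Jn 2 T)) :=
  ((abelem_Ohm_center 2 S).le_Ohm (le_inf ((h.jo.Z_le hS).trans h.jo.V_le) (Ohm_center_le_cen _ hS))).trans
    (Ohm_center_le_Jn 2 T)

theorem eq_S (h : Good T K L) (hS : PGrp 2 S) (hT : T ≤ S) (hL : S ≤ L) : T = S := (h.jo.syl.max hS hT hL).symm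

theorem two (h : Good T K L) (hK : JC (Jn 2 T) K') (hL : Top (Jn 2 T) K' L') (hne : L ≠ L') (hS : Syl 2 S ⊤)
    (hT : T ≤ S) : (Ω[2](Z(S)) = Ω[2](Z(Jn 2 T)) ∧ #Ω[2](Z(Jn 2 T)) = 2) ∨
      (Ω[2](Z(S)) = Ω[2](Z(Jn 2 T)) ∧ #Ω[2](Z(Jn 2 T)) = 4 ∧ T = S) ∨
      (#Ω[2](Z(Jn 2 T)) = 4 ∧ T ≤ C(Ω[2](Z(Jn 2 T))) ∧ N(Ω[2](Z(Jn 2 T))) ≤ C(Ω[2](Z(S))) ∧
        C(Ω[2](Z(Jn 2 T))) ≤ L) := by
  have z1 := h.Z_le hT
  have z2 : Ω[2](Z(S)) ≠ ⊥ := hS.pi.Ohm_center_ne_bot (ne_bot_of_le ((H5b.Jn_le 2 T).trans hT) hK.J_ne)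
  have c1 := h.jc.card_Z0
  have c2 := hK.card_Z0
  have cz : ∀ g, ∀ X, JC (Jn 2 T) X → FT.cj g Ω[2](Z(S)) ≠ Ω[2](Z(Jn 2 T)) ⊓ C(X) := fun g X x e => by
    rw [cj_Ohm, cj_center] at e
    exact h.jo.zn.not_cenZ (hS.cj_mem (mem_top g)) x.toJC0 (centsC (e.le.trans inf_le_right))
      (centsC (e.le.trans (inf_le_left.trans (Ohm_center_le_cen _ le_rfl))))
  have n0 : T ≤ N(Ω[2](Z(Jn 2 T))) := norms_Ohm _ (norms_center (Jn_nml 2 T).nrm)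
  have sZ : S ≤ C(Ω[2](Z(S))) := centsC (Ohm_center_le_cen _ le_rfl)
  set Z := Ω[2](Z(S))
  set Z0 := Ω[2](Z(Jn 2 T))
  have out : ¬ K' ≤ L := fun e => hne (h.top.eq' hL e)
  have i : Z0 ⊓ C(K) ⊓ (Z0 ⊓ C(K')) = ⊥ := by
    by_contra hn
    exact out ((cents_norm (centsC (inf_le_right.trans inf_le_right))).trans (h.top.nrm_le inf_le_left hn))
  have c3 := card_mul_le (A := Z0 ⊓ C(K)) (B := Z0 ⊓ C(K')) inf_le_left inf_le_left
  rw [i, card_bot'] at c3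
  have p1 := card_pos (Z0 ⊓ C(K))
  have c4 : #(Z0 ⊓ C(K')) = #(Z0 ⊓ C(K)) := by omega
  have c5 : #(Z0 ⊓ C(K)) ≤ 2 := by rw [c4, c1] at c3; nlinarith
  by_cases c6 : #(Z0 ⊓ C(K)) = 1
  · exact .inl ⟨eq_of_card_le z1 (by have := one_lt_card z2; omega), by omega⟩
  have c7 : #(Z0 ⊓ C(K)) = 2 := by omega
  have c8 : #Z0 = 4 := by omega
  have ne1 : Z0 ⊓ C(K) ≠ ⊥ := ne_bot_of_one_lt_card (by omega)
  have nL := h.top.nrm_le le_rfl ne1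
  by_cases e : Z = Z0
  · exact .inr (.inl ⟨e, c8, h.eq_S hS.pi hT ((cents_norm (centsS (inf_le_left.trans e.ge) sZ)).trans nL)⟩)
  have c9 := card_two_of_four c8 z1 z2 e
  have ne2 : Z0 ⊓ C(K') ≠ Z0 ⊓ C(K) := fun q => ne1 (by rw [← i, q, inf_idem])
  have cz1 := fun X x => cj_one Z ▸ cz 1 X x
  refine .inr (.inr ⟨c8, fun t ht => ?_, cents_two c9 fun g hg => cj_eq_self.1 (four_third c8 inf_le_left inf_le_left
    (cj_le_of_nrm hg z1) z1 c7 (c4.trans c7) ((card_cj _ _).trans c9) c9 ne2 (cz g K h.jc) (cz g K' hK) (cz1 K h.jc)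
    (cz1 K' hK)), ((cen_anti inf_le_left).trans (cen_le_nrm _)).trans nL⟩)
  by_cases q : FT.cj t (Z0 ⊓ C(K)) = Z0 ⊓ C(K)
  · rw [← four_sup c8 z1 inf_le_left c9 c7 (cz1 K h.jc).symm, cen_sup]
    exact ⟨sZ (hT ht), cents_two c7 le_rfl (cj_eq_self.1 q)⟩
  · have q2 := four_third c8 z1 inf_le_left (cj_le_of_nrm (n0 ht) inf_le_left) inf_le_left c9 c7
      ((card_cj _ _).trans c7) (c4.trans c7) (cz1 K h.jc).symm (fun r => cz t⁻¹ K h.jc (cj_eq_iff.1 r).symm) q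
      (cz1 K' hK).symm ne2
    refine absurd ((cents_norm (centsC (inf_le_right (a := Z0)))).trans ?_) out
    rw [← q2, ← cj_nrm]
    exact cj_le_of_mem (h.jo.syl.le ht) nL

theorem two_cen (h : Good T K L) (hK : JC (Jn 2 T) K') (hL : Top (Jn 2 T) K' L') (hne : L ≠ L') :
    T ≤ C(Ω[2](Z(Jn 2 T))) := by
  obtain ⟨S, hS, hT⟩ := h.jo.syl.pi.exists_syl le_top
  rcases h.two hK hL hne hS hT with e | e | e
  · exact e.1 ▸ centsC (Ohm_center_le_cen _ hT)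
  · exact e.1 ▸ centsC (Ohm_center_le_cen _ hT)
  · exact e.2.1

theorem nK (h : Good T K L) (hc : T ≤ C(Ω[2](Z(Jn 2 T)))) : T ≤ N(K) :=
  h.jo.norms_of_W h.jc.toJC0 h.top.hK h.jo.syl.le (inf_le_right (a := Ω[2](Z(Jn 2 T))))
    (ne_bot_of_one_lt_card (by rw [h.jc.card_Z0_inf]; omega)) (cents_norm (centsS inf_le_left hc))

theorem P_le (h : Good T K L) : K ⊔ T ≤ L := sup_le h.top.hK h.jo.syl.le

theorem syl_P (h : Good T K L) : Syl 2 T (K ⊔ T) := h.jo.syl.subl le_sup_right h.P_le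

theorem O_le (h : Good T K L) : O[{2}](L) ≤ O[{2}](K ⊔ T) :=
  pcore_le_pcore (h.jo.Q_le.trans le_sup_right) (norms_of_le h.P_le)

theorem ch (h : Good T K L) : C(O[{2}](K ⊔ T)) ≤ O[{2}](K ⊔ T) := (cen_anti h.O_le).trans (h.jo.ch.trans h.O_le)

theorem s3l (h : Good T K L) (hn : T ≤ N(K)) : S3L (K ⊔ T) := by
  have o : O[{2}](K) ≤ T := (h.jo.O_le h.jc.toJC0 h.top.hK).trans h.jo.Q_le
  have h1 : T.relIndex (K ⊔ T) = 3 := by
    rw [(mulEq_sup hn).relIndex_right, ← inf_relIndex_right,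
      le_antisymm (h.jc.le_O (h.jo.syl.pi.inf_left K) inf_le_right) (le_inf o (pcore_le _ _)), h.jc.idx]
  have h2 : T ⊓ Dk K ≤ O[{2}](K ⊔ T) := pcore_max (h.jo.syl.pi.inf_left _) ⟨inf_le_left.trans le_sup_right,
    sup_le (norms_of_comm_le (by rw [commC]; exact (le_Dk.1 inf_le_right).2.trans (le_inf o (le_qpre _))))
      (normsI (le_nrm T) (norms_Dk hn))⟩
  have h3 := Nat.le_of_dvd (relIndex_pos _ _) (relIndex_dvd_of_le h2 T)
  rw [inf_relIndex_left] at h3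
  have h4 := h.jc.idx_Dk hn
  have h5 := one_lt_relIndex fun e : T ≤ O[{2}](K ⊔ T) => h.jc.not_le (pcore_pi _ _)
    (le_sup_left.trans (pcore_nrm _ (K ⊔ T))) ((H5b.Jn_le 2 T).trans e)
  rw [S3L, ← relIndex_mul (pcore_le_syl h.syl_P) le_sup_right, h1]
  omega

theorem not_cen (h : Good T K L) (hc : T ≤ C(Ω[2](Z(Jn 2 T)))) : ¬ K ≤ C(Ω[2](Z(T))) := fun e => by
  have h1 := (abelem_Ohm_center 2 (Jn 2 T)).le_Ohm
    (le_inf (((Ohm_le _ _).trans inf_le_left).trans (H5b.Jn_le 2 T)) (centsC hc))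
  have := h.jc.card_Z0_inf
  rw [eq_bot_of_le (le_inf inf_le_right (inf_le_left.trans (h1.trans (centsC e)))) h.jc.W_act.2, card_bot'] at this
  omega

theorem core (h : Good T K L) (h' : Good T K' L') (hne : L ≠ L') (hX : PGrp 2 X) (h1 : K ⊔ T ≤ N(X))
    (h2 : K' ⊔ T ≤ N(X)) : X = ⊥ := by
  by_contra hn
  exact hne (h.top.eq' h'.top ((le_sup_left.trans h2).trans (h.top.max _ (loc_nrm hX hn) (le_sup_left.trans h1)
    ((H5b.Jn_le 2 T).trans (le_sup_right.trans h1)))))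

theorem amal (h : Good T K L) (h' : Good T K' L') (hne : L ≠ L') : S3Am (K ⊔ T) (K' ⊔ T) T :=
  have c := h.two_cen h'.jc h'.top hne
  ⟨h.s3l (h.nK c), h'.s3l (h'.nK c), h.syl_P, h'.syl_P, fun _ a => h.core h' hne (h.jo.syl.pi.mono a)⟩

theorem main (h : Good T K L) (h' : Good T K' L') (hne : L ≠ L') :
    (Abelem 2 O[{2}](K ⊔ T) ∧ Abelem 2 O[{2}](K' ⊔ T)) ∧
      (IsS4 ↥(K ⊔ T) ∧ IsS4 ↥(K' ⊔ T) ∨ IsS4C2 ↥(K ⊔ T) ∧ IsS4C2 ↥(K' ⊔ T)) :=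
  have c := h.two_cen h'.jc h'.top hne
  (h.amal h' hne).main ⟨inf_le_right.trans h.ch, fun e => h.not_cen c (le_sup_left.trans e)⟩
    ⟨inf_le_right.trans h'.ch, fun e => h'.not_cen c (le_sup_left.trans e)⟩

theorem ne_cj (h : Good T K L) (hg : g ∉ L) : L ≠ FT.cj g L := fun e => hg (h.top.nrm (cj_eq_self.1 e.symm))

theorem not_mem (h : Good T K L) (hS : PGrp 2 S) (hT : T ≤ S) (hs : s ∈ S) (hn : s ∉ T) : s ∉ L := fun e =>
  hn ((h.eq_S (hS.inf_left L) (le_inf hT h.jo.syl.le) inf_le_right).ge ⟨hs, e⟩)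

/-- the structure of `T` when it is not a Sylow subgroup of `G` -/
theorem swap (h : Good T K L) (hS : PGrp 2 S) (hT : T ≤ S) (hs : s ∈ S) (hn : s ∉ T) (hN : s ∈ N(T)) :
    ∃ Q, Abelem 2 Q ∧ C(Q) ≤ Q ∧ Q.relIndex T = 2 ∧ Q ⊔ FT.cj s Q = T ∧ ¬ Q ≤ FT.cj s Q := by
  have hne := h.ne_cj (h.not_mem hS hT hs hn)
  have a := h.amal (h.cj hN) hne
  have e : FT.cj s K ⊔ T = FT.cj s (K ⊔ T) := by rw [cj_sup, cj_of_mem_nrm hN]
  have n : O[{2}](K ⊔ T) ≠ FT.cj s O[{2}](K ⊔ T) := fun q => h.jo.Q_ne (eq_bot_of_le h.O_le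
    (a.core _ (pcore_le_syl a.t₁) (pcore_nrm _ _) (by rw [q, cj_pcore, ← e]; exact pcore_nrm _ _)))
  exact ⟨_, (h.main (h.cj hN) hne).1.1, h.ch, (a.s₁.idx a.t₁).1, a.s₁.sup_eq' a.t₁
    (cj_le_of_nrm hN (pcore_le_syl a.t₁)) fun q => n (eq_of_card_eq q (card_cj _ _)).symm,
    fun q => n (eq_of_card_eq q (card_cj _ _).symm)⟩

end Good

/-- two elementary abelian subgroups generating `T`: an involution outside one of them lies in the other -/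
theorem inv_mem_of (hQ : Abelem 2 Q) (hR : Abelem 2 R) (cR : C(R) ≤ R) (i : Q.relIndex T = 2) (e : Q ⊔ R = T)
    (hx : x ∈ T) (x2 : x ^ 2 = 1) (hn : x ∉ Q) : x ∈ R := by
  obtain ⟨r, hr, r1⟩ := SetLike.not_le_iff_exists.1 fun q : R ≤ Q =>
    hn ((sup_eq_left.2 q).symm.trans e ▸ hx)
  have l : Q ≤ T := e ▸ le_sup_left
  have m := mul_mem_two i hx (e ▸ mem_sup_right hr) hn r1
  have r2 := hR.pow hr
  have c : x * r ∈ C[r] := by
    have := hQ.pow m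
    rw [sq] at this x2 r2
    rw [mem_cen1]
    calc x * r * r = x := by rw [mul_assoc, r2, mul_one]
      _ = r * r * x * (x * r * (x * r)) := by rw [this, r2, one_mul, mul_one]
      _ = r * r * (x * x) * r * x * r := by group
      _ = r * (x * r) := by rw [x2, r2]; group
  have g : Q ⊔ ⟪r⟫ = T := (maxIn_of_prime_relIndex (i ▸ Nat.prime_two) l).sup_eq
    (zpowers_le.2 (e ▸ mem_sup_right hr)) fun q => r1 (q (mem_zpowers r))
  have d : x * r ∈ C(T) := by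
    rw [← g, cen_sup, cen_zpowers]
    exact ⟨hQ.ab.le_cen m, c⟩
  exact (mul_mem_cancel_right hr).1 (cR (cen_anti (e ▸ le_sup_right) d))

namespace Good

theorem not_se (h : Good T K L) : ¬ IsStronglyEmbedded L := fun e => by
  obtain ⟨v, hv, v1⟩ := exists_ne_one ((pcore_pi {2} L).Ohm_center_ne_bot h.jo.Q_ne)
  refine h.jo.nle ((H5b.Jn_le_iff.2 fun A hA a ha => ?_).trans (Vl_le L))
  by_cases a1 : a = 1
  · exact a1 ▸ one_mem _
  obtain ⟨d, hd, rfl⟩ := H20.se_exists_conj_mem e (h.jo.syl.le (h.jo.V_le hv))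
    ((abelem_Vl L).orderOf Nat.prime_two hv v1) (h.jo.syl.le (hA.le ha)) (Abelem.orderOf hA.ab Nat.prime_two ha a1)
  exact conj_mem (norms_Vl le_rfl hd) hv

theorem exists_s (hS : PGrp 2 S) (hT : T ≤ S) (hne : T ≠ S) : ∃ s ∈ S, s ∉ T ∧ s ∈ N(T) := by
  obtain ⟨s, a, b⟩ := SetLike.exists_of_lt (hS.lt_subnorm (lt_of_le_of_ne hT hne))
  exact ⟨s, a.1, b, a.2⟩

theorem Z0_le (hc : T ≤ C(Ω[2](Z(Jn 2 T)))) : Ω[2](Z(T)) = Ω[2](Z(Jn 2 T)) :=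
  le_antisymm (Ohm_center_le_Jn 2 T) ((abelem_Ohm_center 2 (Jn 2 T)).le_Ohm
    (le_inf (((Ohm_le _ _).trans inf_le_left).trans (H5b.Jn_le 2 T)) (centsC hc)))

theorem other1 (h : Good T K L) (hn : ¬ N(Jn 2 T) ≤ L) : ∃ g ∈ N(T), g ∉ L := by
  obtain ⟨S, hS, hT⟩ := h.jo.syl.pi.exists_syl le_top
  by_cases e : T = S
  · subst e
    obtain ⟨g, hg, n⟩ := SetLike.not_le_iff_exists.1 hn
    have c := h.two_cen (h.jc.cj_nrm hg) (cj_of_mem_nrm hg ▸ h.top.cj g) (h.ne_cj n)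
    exact ⟨g, h.jo.zn.nZ hS (Z0_le c ▸ norms_Ohm _ (norms_center le_rfl) hg), n⟩
  · obtain ⟨s, a, b, c⟩ := exists_s hS.pi hT e
    exact ⟨s, c, h.not_mem hS.pi hT a b⟩

theorem le_center (h : Good T K L) (hS : PGrp 2 S) (hT : T ≤ S) (hne : T ≠ S) (hV : Abelem 2 V) (hn : V ⊴ S) :
    V ≤ Z(T) := by
  have cR : ∀ (s : G) (Q : Subgroup G), C(Q) ≤ Q → C(FT.cj s Q) ≤ FT.cj s Q := fun s Q c => by
    rw [← cj_cen]; exact cj_mono s c
  have l : V ≤ T := by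
    by_contra hV'
    obtain ⟨y, y1, y2, y3⟩ := exists_s (hS.mono (sup_le hn.le hT)) le_sup_right fun e => hV' (e ▸ le_sup_left)
    obtain ⟨v, hv, t, ht, rfl⟩ := (mem_sup_norm (hT.trans hn.nrm)).1 y1
    have v1 : v ∈ N(T) := (mul_mem_cancel_right (le_nrm T ht)).1 y3
    obtain ⟨Q, q1, q2, q3, q4, q5⟩ := h.swap hS hT (hn.le hv) (fun e => y2 (mul_mem e ht)) v1
    obtain ⟨q, hq, n⟩ := SetLike.not_le_iff_exists.1 q5
    have qT : q ∈ T := q4 ▸ mem_sup_left hq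
    have x1 : q * (v * q⁻¹ * v⁻¹) ∈ V := by
      rw [show q * (v * q⁻¹ * v⁻¹) = q * v * q⁻¹ * v⁻¹ by group]
      exact mul_mem (hn.conj_mem (hT qT) hv) (inv_mem hv)
    refine n ((mul_mem_cancel_right (conj_mem_cj.2 (inv_mem hq))).1 (inv_mem_of q1 (q1.cj v) (cR _ _ q2) q3 q4
      (mul_mem qT (conj_mem v1 (inv_mem qT))) (hV.pow x1) fun e => n (mem_cj.2 ?_)))
    have v2 : v⁻¹ = v := inv_eq_of_mul_eq_one_right (sq v ▸ hV.pow hv)
    have := inv_mem ((mul_mem_cancel_left hq).1 e)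
    rw [show (v * q⁻¹ * v⁻¹)⁻¹ = v * q * v⁻¹ by group, v2] at this
    rwa [v2]
  obtain ⟨s, a, b, c⟩ := exists_s hS hT hne
  obtain ⟨Q, q1, q2, q3, q4, -⟩ := h.swap hS hT a b c
  have k := fun x (hx : x ∈ V) => inv_mem_of q1 (q1.cj s) (cR _ _ q2) q3 q4 (l hx) (hV.pow hx)
  have e := cj_of_mem_nrm (hn.nrm a)
  have m : V ≤ Q := by
    by_contra m
    obtain ⟨x, hx, x1⟩ := SetLike.not_le_iff_exists.1 m
    obtain ⟨y, hy, y1⟩ := SetLike.not_le_iff_exists.1 fun r : V ≤ FT.cj s Q => m (cj_le_cj.1 (e.le.trans r))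
    exact y1 ((mul_mem_cancel_left (k x hx x1)).1 (k _ (mul_mem hx hy) fun r =>
      x1 ((mul_mem_cancel_right (by_contra fun u => y1 (k y hy u))).1 r)))
  refine le_inf l (q4 ▸ centsY (m.trans q1.ab.le_cen) ((e.ge.trans (cj_mono s m)).trans (q1.cj s).ab.le_cen))

theorem eq_of_syl (h : Good S K L) (hS : Syl 2 S ⊤) (h' : Good T K' L') (hT : T ≤ S) : T = S := by
  by_contra hne
  have w := (h.jo.W_le h.jc.toJC0 h.top.hK).trans (((abelem_Vl L).le_Ohm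
    (h'.le_center hS.pi hT hne (abelem_Vl L) ⟨h.jo.V_le, norms_Vl h.jo.syl.le⟩)).trans (Ohm_center_le_Jn 2 T))
  obtain ⟨s, a, b, c⟩ := exists_s hS.pi hT hne
  have c4 := card_le w
  rw [h.jc.card] at c4
  rcases h'.two (h'.cj c).jc (h'.cj c).top (h'.ne_cj (h'.not_mem hS.pi hT a b)) hS hT with e | e | e
  · omega
  · exact hne e.2.2
  · have e1 := eq_of_card_eq w (h.jc.card.trans e.1.symm)
    exact hS.pi.Ohm_center_ne_bot (ne_bot_of_le (H5b.Jn_le 2 S) h.jc.J_ne) (eq_bot_of_le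
      (le_inf (e1 ▸ h'.Z_le hT) (centsC ((norms_Wk (le_nrm K)).trans (e1 ▸ e.2.2.1)))) h.jc.W_act.2)

theorem syl_top (h : Good T K L) (hn : N(Jn 2 T) ≤ L) : Syl 2 T ⊤ :=
  h.jo.syl.syl_top_of_nrm_le ((norms_Jn le_rfl).trans hn)

theorem other (h : Good T K L) (hO : O[{2}]((⊤ : Subgroup G)) = ⊥) : ∃ K' L', Good T K' L' ∧ L ≠ L' := by
  by_cases hn : N(Jn 2 T) ≤ L
  · have hS := h.syl_top hn
    have := mt (se_iff h.top.loc hO).2 h.not_se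
    push Not at this
    obtain ⟨T', t⟩ := this
    obtain ⟨T', t⟩ := (cm_of h.jo.zn hS hn).exists_ms t
    obtain ⟨g, hg, e⟩ := h.jo.syl.syl_Jsub t.p t.le
    obtain ⟨K', L', a, b⟩ := (t.cj hg).exists_good
    rw [h.eq_of_syl hS a e] at a
    exact ⟨K', L', a, fun e => b (e ▸ a.top.hK)⟩
  · obtain ⟨g, a, b⟩ := h.other1 hn
    exact ⟨_, _, h.cj a, h.ne_cj b⟩

theorem cases (h : Good T K L) (hO : O[{2}]((⊤ : Subgroup G)) = ⊥) (hS : Syl 2 S ⊤) (hT : T ≤ S) :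
    (Ω[2](Z(S)) = Ω[2](Z(Jn 2 T)) ∧ #Ω[2](Z(Jn 2 T)) = 2) ∨
      (Ω[2](Z(S)) = Ω[2](Z(Jn 2 T)) ∧ #Ω[2](Z(Jn 2 T)) = 4 ∧ T = S) ∨
      (Ω[2](Z(T)) = Ω[2](Z(Jn 2 T)) ∧ #Ω[2](Z(Jn 2 T)) = 4 ∧
        (L ⊓ C(Ω[2](Z(Jn 2 T)))).relIndex N(Ω[2](Z(Jn 2 T))) = 2) := by
  obtain ⟨K', L', a, b⟩ := h.other hO
  rcases h.two a.jc a.top b hS hT with e | e | e
  · exact .inl e
  · exact .inr (.inl e)
  by_cases hn : N(Jn 2 T) ≤ L
  · have := hS.max (h.syl_top hn).pi ((h.syl_top hn).max hS.pi hT le_top).le le_top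
    exact .inr (.inl ⟨this ▸ Z0_le e.2.1, e.1, this⟩)
  refine .inr (.inr ⟨Z0_le e.2.1, e.1, ?_⟩)
  rw [inf_eq_right.2 e.2.2.2]
  have h1 := four_idx_two e.1 le_rfl (h.Z_le hT)
    (hS.pi.Ohm_center_ne_bot (ne_bot_of_le ((H5b.Jn_le 2 T).trans hT) h.jc.J_ne)) e.2.2.1
  have h2 := one_lt_relIndex fun r : N(Ω[2](Z(Jn 2 T))) ≤ C(Ω[2](Z(Jn 2 T))) =>
    hn ((norms_Ohm _ (norms_center le_rfl)).trans (r.trans e.2.2.2))
  omega

theorem cen (h : Good T K L) (hO : O[{2}]((⊤ : Subgroup G)) = ⊥) : T ≤ C(Ω[2](Z(Jn 2 T))) := by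
  obtain ⟨K', L', a, b⟩ := h.other hO
  exact h.two_cen a.jc a.top b

theorem eq_P (h : Good T K L) (s : S3L (K ⊔ T)) (hQ : Abelem 2 O[{2}](K ⊔ T)) (hc : #(K ⊔ T) ≤ 48) : K ⊔ T = L := by
  have e : O[{2}](K ⊔ T) = O[{2}](L) := le_antisymm ((hQ.ab.cents h.O_le le_rfl).trans h.jo.ch) h.O_le
  have c := s.card
  rw [e] at c hQ
  have w := (h.jo.W_le h.jc.toJC0 h.top.hK).trans (Vl_le L)
  have n : L ≤ N(Wk K) := norms_Wk fun g hg => cj_eq_self.1 (by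
    by_contra hne
    have j := h.jo.cj_JC h.jc.toJC0 h.top.hK hg
    have l := cj_le_of_mem hg h.top.hK
    have := card_mul_le ((h.jo.W_le j.toJC0 l).trans (Vl_le L)) w
    rw [(h.jo.pair j.toJC0 l h.jc.toJC0 h.top.hK hne).1, card_bot', j.card, h.jc.card] at this
    omega)
  have h1 : L ⊓ C(Wk K) ≤ O[{2}](L) := by
    refine pcore_max (piGrp_iff_forall.2 fun x hx => ?_) (subcent_nml n)
    refine (constt_compl_eq_one_iff (π := {2})).1 ?_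
    set y := constt {2}ᶜ x
    have hy : y ∈ L ⊓ C(Wk K) := constt_mem _ hx
    have y1 : PiElt {2}ᶜ y := piElt_constt _ x
    have y2 : ⟪y⟫ ≤ N(O[{2}](L)) := zpowers_le.2 (pcore_nrm _ L hy.1)
    have y3 := coprime_abelian_cent_dprod y2 ((pcore_pi _ L).cop y1.zpowers) hQ.ab
    have y4 : #(Wk K) ≤ #(O[{2}](L) ⊓ C(⟪y⟫)) := card_le (le_inf w (centsC (zpowers_le.2 hy.2)))
    have y5 := y3.card
    rw [h.jc.card] at y4
    have y6 : ⟪y⟫ ≤ C(⁅O[{2}](L), ⟪y⟫⁆) := by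
      by_cases q : #⁅O[{2}](L), ⟪y⟫⁆ = 2
      · exact cents_two q (norm_comm_right _ _)
      · have := card_pos ⁅O[{2}](L), ⟪y⟫⁆
        have : #⁅O[{2}](L), ⟪y⟫⁆ < 3 := by nlinarith
        rw [eq_bot_iff_card'.2 (show #⁅O[{2}](L), ⟪y⟫⁆ = 1 by omega), cen_bot]
        exact le_top
    exact y1.eq_one_of_mem' (pcore_pi _ L) (h.jo.ch (coprime_cents_of_comm_cents y2
      ((pcore_pi _ L).cop y1.zpowers) (centsC y6) (mem_zpowers y)))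
  have h2 := four_idx h.jc.card n
  have h3 := card_inf_mul_relIndex C(Wk K) L
  have h4 := card_le h1
  rw [inf_comm] at h3
  exact eq_of_card_le h.P_le (by nlinarith)

theorem final (h : Good T K L) (h' : Good T K' L') (hne : L ≠ L') : K ⊔ T = L ∧ K' ⊔ T = L' := by
  have a := h.amal h' hne
  obtain ⟨⟨b, c⟩, d⟩ := h.main h' hne
  have c1 : ∀ P : Subgroup G, IsS4 P → #P ≤ 48 := fun P e => by
    rw [Nat.card_congr e.some.toEquiv, Nat.card_perm]; simp; decide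
  have c2 : ∀ P : Subgroup G, IsS4C2 P → #P ≤ 48 := fun P e => by
    rw [Nat.card_congr e.some.toEquiv, Nat.card_prod, Nat.card_perm]; simp; decide
  exact ⟨h.eq_P a.s₁ b (d.elim (fun e => c1 _ e.1) fun e => c2 _ e.1),
    h'.eq_P a.s₂ c (d.elim (fun e => c1 _ e.2) fun e => c2 _ e.2)⟩

end Good

end Cfsg.Agent.P22
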